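import Cfsg.Agent.KnownB.PGLOrderR.GUSetup

/-! Classes of elements of odd prime order `r ∣ q + 1` in `PGU_n(q)`. -/

set_option autoImplicit false
set_option maxHeartbeats 800000

namespace Cfsg.Agent.KnownB.PGLOrderR

open Polynomial Cfsg.Agent.Linear.PGLInvol

variable {K : Type*} [Field K] [Fintype K] {q n : ℕ}

local notation "E" => (Matrix.toLinAlgEquiv' : Matrix (Fin n) (Fin n) K ≃ₐ[K] Module.End K (Fin n → K))
set_option quotPrecheck false in
local notation "GUn" => ↥(Cfsg.GU n K q)
set_option quotPrecheck false in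
local notation "PU" => ↥(Cfsg.GU n K q) ⧸ Subgroup.center ↥(Cfsg.GU n K q)

theorem card_classes_GU (hK : Fintype.card K = q ^ 2) {r : ℕ} (hn : 3 ≤ n) (hr : r.Prime) (hr2 : r ≠ 2)
    (hrq : r ∣ q + 1) :
    Nat.card {C : ConjClasses PU // ∃ g : PU, ConjClasses.mk g = C ∧ orderOf g = r} =
      (Nat.choose (n + r - 1) (r - 1) - r - (if r ∣ n then 1 else 0)) / r + r * (if r ∣ n then 1 else 0) := by
  classical
  haveI : Fact r.Prime := ⟨hr⟩
  haveI : NeZero r := ⟨hr.ne_zero⟩
  haveI : NeZero n := ⟨by omega⟩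
  rw [← count_orbits (r := r) (n := n) (by omega)]
  have hq : 2 ≤ q := by
    by_contra h
    have := Fintype.one_lt_card (α := K)
    rw [hK] at this
    interval_cases q <;> simp at this
  have hsq : q ^ 2 - 1 = (q - 1) * (q + 1) := by
    rw [sq, mul_comm (q - 1), ← Nat.mul_self_sub_mul_self_eq, mul_one]
  have hr1 : ¬ r ∣ q - 1 := fun h => by
    have h2 := Nat.dvd_sub hrq h
    rw [show q + 1 - (q - 1) = 2 by omega] at h2
    exact hr2 ((Nat.prime_dvd_prime_iff_eq hr Nat.prime_two).mp h2)
  obtain ⟨γ, hγ⟩ := IsCyclic.exists_generator (α := Kˣ)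
  have hγo : orderOf γ = (q - 1) * (q + 1) := by
    rw [orderOf_eq_card_of_forall_mem_zpowers hγ, Nat.card_units, Nat.card_eq_fintype_card, hK, hsq]
  set η := γ ^ (q - 1) with hη
  have hηo : orderOf η = q + 1 := by
    rw [hη, orderOf_pow_of_dvd (by omega) (by rw [hγo]; exact dvd_mul_right _ _), hγo,
      Nat.mul_div_cancel_left _ (by omega)]
  have hη1 : ∀ i : ℕ, ((η : K) ^ i) ^ (q + 1) = 1 := fun i => by
    rw [← Units.val_pow_eq_pow_val, ← Units.val_pow_eq_pow_val, ← pow_mul, mul_comm, pow_mul, ← hηo,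
      pow_orderOf_eq_one, one_pow, Units.val_one]
  have hηprim : IsPrimitiveRoot (η : K) (q + 1) := by
    rw [← hηo, ← orderOf_units]; exact IsPrimitiveRoot.orderOf _
  have h2η : ∃ x : K, x ^ (q + 1) = 1 ∧ x ≠ 1 :=
    ⟨η, hηprim.pow_eq_one, hηprim.ne_one (by omega)⟩
  obtain ⟨Q, hQ, hQmk⟩ := exists_toPGL hK (n := n) h2η
  have hqK : ((q : ℕ) : K) = 0 := by
    have h := FiniteField.cast_card_eq_zero K
    rw [hK, Nat.cast_pow] at h
    exact eq_zero_of_pow_eq_zero h
  have hrK : (r : K) ≠ 0 := fun h => by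
    obtain ⟨c, hc⟩ := hrq
    have h1 := congrArg (fun x : ℕ => (x : K)) hc
    simp [hqK, h] at h1
  set ω := (η : K) ^ ((q + 1) / r) with hω
  have hωo : orderOf ω = r := by
    rw [hω, orderOf_pow_of_dvd (Nat.div_ne_zero_iff.mpr ⟨hr.ne_zero, Nat.le_of_dvd (by omega) hrq⟩)
      (by rw [orderOf_units, hηo]; exact Nat.div_dvd_of_dvd hrq), orderOf_units, hηo,
      Nat.div_div_self hrq (by omega)]
  have hprim : IsPrimitiveRoot ω r := hωo ▸ IsPrimitiveRoot.orderOf ω
  let e : ZMod r → K := fun j => ω ^ j.val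
  have he_add : ∀ i j, e (i + j) = e i * e j := fun i j => by
    show ω ^ _ = _
    rw [ZMod.val_add, ← pow_add]
    conv_rhs => rw [← pow_mod_orderOf, hωo]
  have he_inj : Function.Injective e := fun i j h => ZMod.val_injective r
    (hprim.pow_inj (ZMod.val_lt i) (ZMod.val_lt j) h)
  have he_r : ∀ j, e j ^ r = 1 := fun j => by
    show (ω ^ j.val) ^ r = 1
    rw [← pow_mul, mul_comm, pow_mul, hprim.pow_eq_one, one_pow]
  have he_surj : ∀ c : K, c ^ r = 1 → ∃ k, c = e k := fun c hc => by
    obtain ⟨i, hi, rfl⟩ := hprim.eq_pow_of_pow_eq_one hc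
    exact ⟨(i : ZMod r), by show ω ^ i = ω ^ (i : ZMod r).val; rw [ZMod.val_natCast, Nat.mod_eq_of_lt hi]⟩
  have he0 : ∀ j, e j ≠ 0 := fun j => pow_ne_zero _ (hprim.ne_zero hr.ne_zero)
  have he1 : ∀ j, e j ^ (q + 1) = 1 := fun j => by
    show (((η : K) ^ ((q + 1) / r)) ^ j.val) ^ (q + 1) = 1
    rw [← pow_mul (η : K) ((q + 1) / r) j.val]; exact hη1 _
  -- the diagonal representatives
  choose fl hfl using fun s : Sym (ZMod r) n => exists_fun s
  choose D hDm using fun s : Vary r n => exists_mono hK 1 (fun i => e (fl s.1 i)) fun i => he1 _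
  have hDval : ∀ s, (D s).1.1 = Matrix.diagonal fun i => e (fl s.1 i) := fun s => by
    rw [hDm]
    ext i j
    by_cases h : i = j
    · subst h; simp [mono]
    · simp [mono, h, Ne.symm h]
  have hDr : ∀ s, (D s).1.1 ^ r = (1 : K) • 1 := fun s => by
    rw [hDval, Matrix.diagonal_pow, one_smul, ← Matrix.diagonal_one]
    exact congrArg _ (funext fun i => he_r _)
  have hDns : ∀ s (c : K), (D s).1.1 ≠ c • 1 := fun s c h => by
    rw [hDval, Matrix.smul_one_eq_diagonal] at h
    have hc : ∀ i, e (fl s.1 i) = c := fun i => congrFun (Matrix.diagonal_injective h) i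
    let i0 : Fin n := ⟨0, by omega⟩
    refine s.2 (fl s.1 i0) (Sym.coe_injective ?_)
    rw [← hfl s.1, Multiset.map_congr rfl (g := fun _ => fl s.1 i0) fun i _ => he_inj ((hc i).trans (hc i0).symm),
      Multiset.map_const', Finset.card_val, Finset.card_univ, Fintype.card_fin, Sym.coe_replicate]
  have hprod : ∀ m : Multiset (ZMod r), ∀ s : Sym (ZMod r) n, (s : Multiset (ZMod r)) = m → ∀ k,
      (Matrix.diagonal fun i => e (k + fl s i)).charpoly = (m.map fun j => X - C (e (k + j))).prod := by
    intro m s hs k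
    rw [Matrix.charpoly_diagonal, ← hs, ← hfl s, Multiset.map_map]
    rfl
  -- the non-split representatives
  have hnonpow : ∀ j : ℕ, 0 < j → j < r → ∀ c : K, c ^ r ≠ (η : K) ^ j := fun j hj hjr c hc => by
    have hc0 : c ≠ 0 := fun h => by rw [h, zero_pow hr.ne_zero] at hc; exact pow_ne_zero j η.ne_zero hc.symm
    obtain ⟨i, hi⟩ := (mem_powers_iff_mem_zpowers (x := γ)).mpr (hγ (Units.mk0 c hc0))
    have h1 : γ ^ (i * r) = γ ^ ((q - 1) * j) := by
      rw [pow_mul, pow_mul, ← hη]
      exact Units.ext (by rw [show γ ^ i = Units.mk0 c hc0 from hi]; simpa using hc)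
    rw [pow_eq_pow_iff_modEq, hγo] at h1
    have h2 := h1.of_dvd (hrq.mul_left _)
    have h3 : r ∣ (q - 1) * j := Nat.dvd_of_mod_eq_zero (by rw [← h2]; exact Nat.mul_mod_left i r)
    exact absurd (Nat.le_of_dvd hj ((hr.dvd_mul.mp h3).resolve_left hr1)) (by omega)
  have hirr : ∀ u : K, (∀ c : K, c ^ r ≠ u) → Irreducible (X ^ r - C u : K[X]) := fun u hu =>
    X_pow_sub_C_irreducible_of_prime hr hu
  have hmon : ∀ u : K, (X ^ r - C u : K[X]).Monic := fun u => monic_X_pow_sub_C u hr.ne_zero
  let J := Fin ((r - 1) * if r ∣ n then 1 else 0)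
  have hJ : ∀ j : J, r ∣ n ∧ j.1 + 1 < r := fun j => by
    have := j.2
    by_cases hd : r ∣ n
    · simp [hd] at this; exact ⟨hd, by omega⟩
    · simp [hd] at this
  have hex : ∀ j : J, ∃ G : GUn, G.1.1 ^ r = ((η : K) ^ (j.1 + 1)) • 1 := fun j => by
    obtain ⟨⟨k, hk⟩, -⟩ := hJ j
    obtain ⟨π, d, hd, hp⟩ := exists_cycle_block (r := r) hk.symm ((η : K) ^ (j.1 + 1))
    obtain ⟨G, hG⟩ := exists_mono hK π d fun i => by
      rcases hd i with h | h <;> rw [h]
      · exact hη1 _
      · exact one_pow _
    exact ⟨G, by rw [hG, hp]⟩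
  choose B hB using hex
  have hBns : ∀ j (c : K), (B j).1.1 ≠ c • 1 := fun j c h => by
    have h1 := hB j
    rw [h, _root_.smul_pow, one_pow] at h1
    exact hnonpow _ (Nat.succ_pos _) (hJ j).2 c (smul_left_injective K one_ne_zero h1)
  have hord : ∀ (G : GUn) (a : K), G.1.1 ^ r = a • 1 → (∀ c : K, G.1.1 ≠ c • 1) →
      orderOf (QuotientGroup.mk G : PU) = r := fun G a h1 h2 => by
    rw [← orderOf_injective Q hQ, hQmk]; exact orderOf_mk h1 h2
  have hdown : ∀ {G H : GUn}, IsConj (QuotientGroup.mk G : PU) (QuotientGroup.mk H) →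
      IsConj (QuotientGroup.mk G.1 : GL (Fin n) K ⧸ Subgroup.center (GL (Fin n) K)) (QuotientGroup.mk H.1) :=
    fun {G H} h => by have := Q.map_isConj h; rwa [hQmk, hQmk] at this
  -- the classes
  let T := AddAction.orbitRel.Quotient (ZMod r) (Vary r n) ⊕ J
  have hrel : ∀ s t : Vary r n, AddAction.orbitRel (ZMod r) (Vary r n) s t →
      IsConj (QuotientGroup.mk (D s) : PU) (QuotientGroup.mk (D t)) := by
    rintro s t ⟨k, rfl⟩
    refine isConj_mk_GU hK (c := e k) (he1 k) hrK ?_ ((hDr t).trans (one_smul _ _)) ?_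
    · rw [_root_.smul_pow, inv_pow, he_r, inv_one, one_smul, hDr, one_smul]
    · rw [hDval, hDval]
      have h0 : ∀ i, (e k)⁻¹ * e (fl (k +ᵥ t).1 i) = e (-k + fl (k +ᵥ t).1 i) := fun i => by
        rw [he_add]
        congr 1
        refine inv_eq_of_mul_eq_one_right ?_
        rw [← he_add, add_neg_cancel]
        exact pow_zero ω ▸ (by simp [e])
      rw [← Matrix.diagonal_smul, show ((e k)⁻¹ • fun i => e (fl (k +ᵥ t).1 i)) =
        fun i => e (-k + fl (k +ᵥ t).1 i) from funext fun i => by rw [Pi.smul_apply, smul_eq_mul, h0]]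
      rw [hprod _ _ rfl, coe_vadd, Multiset.map_map,
        show (fun i => e (fl t.1 i)) = fun i => e ((0 : ZMod r) + fl t.1 i) by simp, hprod _ _ rfl]
      congr 1
      exact Multiset.map_congr rfl fun i _ => by simp
  let Φ : T → {C : ConjClasses PU // ∃ g : PU, ConjClasses.mk g = C ∧ orderOf g = r} :=
    Sum.elim (Quotient.lift (fun s => ⟨_, _, rfl, hord _ _ (hDr s) (hDns s)⟩)
      (fun s t h => Subtype.ext (ConjClasses.mk_eq_mk_iff_isConj.2 (hrel s t h))))
      (fun j => ⟨_, _, rfl, hord _ _ (hB j) (hBns j)⟩)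
  have hbij : Function.Bijective Φ := by
    constructor
    · rintro (s | i) (t | j) h <;> have h' := congrArg Subtype.val h
      · induction s using Quotient.ind with
        | _ s =>
        induction t using Quotient.ind with
        | _ t =>
        replace h' := hdown (ConjClasses.mk_eq_mk_iff_isConj.1 h')
        obtain ⟨c, P, hc0, hc⟩ := exists_scalar_of_isConj h'
        have hcr : c ^ r = 1 := by
          have h1 : (P * (D s).1 * P⁻¹ : GL (Fin n) K) ^ r = P * (D s).1 ^ r * P⁻¹ := conj_pow
          have h2 := congrArg Units.val h1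
          simp only [Units.val_pow_eq_pow_val, Units.val_mul] at h2
          rw [hc, _root_.smul_pow, hDr, hDr, one_smul, mul_one, ← Units.val_mul, mul_inv_cancel,
            Units.val_one] at h2
          exact smul_left_injective K one_ne_zero (h2.trans (one_smul _ _).symm)
        obtain ⟨k, rfl⟩ := he_surj c hcr
        have hcp : (D s).1.1.charpoly = (e k • (D t).1.1).charpoly := by
          rw [← hc, Matrix.coe_units_inv]
          exact (Matrix.charpoly_units_conj P (D s).1.1).symm
        rw [hDval, hDval, ← Matrix.diagonal_smul,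
          show (e k • fun i => e (fl t.1 i)) = fun i => e (k + fl t.1 i) from funext fun i => by
            rw [Pi.smul_apply, smul_eq_mul, he_add],
          show (fun i => e (fl s.1 i)) = fun i => e ((0 : ZMod r) + fl s.1 i) by simp,
          hprod _ _ rfl, hprod _ _ rfl] at hcp
        have hroots := congrArg Polynomial.roots hcp
        rw [roots_prod, roots_prod, ← Function.comp_def e (fun j => (0 : ZMod r) + j),
          ← Function.comp_def e (fun j => k + j), ← Multiset.map_map e, ← Multiset.map_map e] at hroots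
        have hms := Multiset.map_injective he_inj hroots
        simp only [zero_add, Multiset.map_id'] at hms
        exact congrArg Sum.inl (Quotient.sound ⟨k, Subtype.ext (Sym.coe_injective (by
          rw [coe_vadd]; exact hms.symm))⟩)
      · induction s using Quotient.ind with
        | _ s =>
        replace h' := hdown (ConjClasses.mk_eq_mk_iff_isConj.1 h')
        obtain ⟨c, -, hc⟩ := pow_eq_of_isConj (hB j) (hDr s) h'.symm
        exact absurd (hc.trans (mul_one _)).symm (hnonpow _ (Nat.succ_pos _) (hJ j).2 c)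
      · induction t using Quotient.ind with
        | _ t =>
        replace h' := hdown (ConjClasses.mk_eq_mk_iff_isConj.1 h')
        obtain ⟨c, -, hc⟩ := pow_eq_of_isConj (hB i) (hDr t) h'
        exact absurd (hc.trans (mul_one _)).symm (hnonpow _ (Nat.succ_pos _) (hJ i).2 c)
      · replace h' := hdown (ConjClasses.mk_eq_mk_iff_isConj.1 h')
        obtain ⟨c, hc0, hc⟩ := pow_eq_of_isConj (hB i) (hB j) h'
        -- both exponents agree modulo r
        by_contra hne
        rcases Nat.lt_or_ge i.1 j.1 with hlt | hge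
        · refine hnonpow (j.1 - i.1) (by omega) (by have := (hJ j).2; omega) c⁻¹ ?_
          rw [show j.1 + 1 = (i.1 + 1) + (j.1 - i.1) by omega, pow_add (η : K) (i.1 + 1) (j.1 - i.1), mul_left_comm] at hc
          rw [inv_pow]
          exact inv_eq_of_mul_eq_one_right ((mul_eq_left₀ (pow_ne_zero _ η.ne_zero)).mp hc.symm)
        · have hij : i.1 ≠ j.1 := fun h => hne (congrArg Sum.inr (Fin.ext h))
          refine hnonpow (i.1 - j.1) (by omega) (by have := (hJ i).2; omega) c ?_
          rw [show i.1 + 1 = (i.1 - j.1) + (j.1 + 1) by omega, pow_add (η : K) (i.1 - j.1) (j.1 + 1)] at hc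
          exact (mul_right_cancel₀ (pow_ne_zero _ η.ne_zero) hc).symm
    · rintro ⟨C, g, rfl, hg⟩
      obtain ⟨G, rfl⟩ := QuotientGroup.mk_surjective g
      have hGr : G ^ r ∈ Subgroup.center GUn := by
        rw [← QuotientGroup.eq_one_iff, QuotientGroup.mk_pow, ← hg, pow_orderOf_eq_one]
      obtain ⟨u, hu⟩ := (mem_center_iff _).1 (center_le hK h2η _ hGr)
      have hGns : ∀ c : K, G.1.1 ≠ c • 1 := fun c hc => by
        have h1 : Q (QuotientGroup.mk G) = 1 := by
          rw [hQmk, QuotientGroup.eq_one_iff]; exact mem_center_of_scalar hc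
        rw [hQ (h1.trans (map_one Q).symm), orderOf_one] at hg
        exact hr.one_lt.ne hg
      have hu1 : (u : K) ^ (q + 1) = 1 := by
        have h := (Unitary.mem_GU_iff_adj hK _).mp (G ^ r).2
        rw [hu] at h
        have h00 := congrFun (congrFun h 0) 0
        simp [Unitary.adj, Matrix.mul_apply, Matrix.one_apply,
          show ∀ x, Forms.frobQ hK x = x ^ q from fun _ => rfl] at h00
        rw [pow_succ]
        exact h00
      rw [SubmonoidClass.coe_pow, Units.val_pow_eq_pow_val] at hu
      obtain ⟨i, -, hi⟩ := hηprim.eq_pow_of_pow_eq_one hu1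
      -- write the scalar as a power times a representative
      have hsplit : (u : K) = (η : K) ^ (i % r) * ((η : K) ^ (i / r)) ^ r := by
        rw [← pow_mul, ← pow_add, mul_comm, Nat.mod_add_div, hi]
      set v := (η : K) ^ (i / r) with hv
      have hv1 : v ^ (q + 1) = 1 := hη1 _
      have hv0 : v ≠ 0 := pow_ne_zero _ η.ne_zero
      have hG' : (v⁻¹ • G.1.1) ^ r = ((η : K) ^ (i % r)) • 1 := by
        rw [_root_.smul_pow, hu, smul_smul, hsplit, inv_pow, mul_comm ((η : K) ^ (i % r)),
          inv_mul_cancel_left₀ (pow_ne_zero r hv0)]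
      rcases Nat.eq_zero_or_pos (i % r) with hz | hpos
      · rw [hz, pow_zero, one_smul] at hG'
        obtain ⟨m, hm, hcp⟩ := exists_prod_linear (e := e) n (v⁻¹ • G.1.1).charpoly
          (by rw [Matrix.charpoly_natDegree_eq_dim, Fintype.card_fin]) (Matrix.charpoly_monic _)
          (fun p hp hpm hd => by
            have hdvd : p ∣ X ^ r - 1 := factor_dvd (a := E (v⁻¹ • G.1.1)) hp (by rw [E_charpoly]; exact hd)
              (by rw [map_sub, map_pow, aeval_X, map_one, ← map_pow, hG', map_one, sub_self])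
            rw [X_pow_sub_one_eq_prod hr.pos hprim] at hdvd
            obtain ⟨ζ, hζ, hd'⟩ := (Prime.dvd_finsetProd_iff hp.prime _).1 hdvd
            obtain ⟨k, rfl⟩ := he_surj ζ ((mem_nthRootsFinset hr.pos (1 : K)).1 hζ)
            exact ⟨k, eq_of_monic_of_associated hpm (monic_X_sub_C _)
              (hp.associated_of_dvd (irreducible_X_sub_C _) hd')⟩)
        have hvary : ∀ j, (⟨m, hm⟩ : Sym (ZMod r) n) ≠ Sym.replicate n j := by
          intro j hj
          have hm' : m = Multiset.replicate n j := congrArg Subtype.val hj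
          rw [hm', Multiset.map_replicate, Multiset.prod_replicate] at hcp
          obtain ⟨x, -, hx⟩ := Forms.exists_conj_of_charpoly_eq hrK n (E (v⁻¹ • G.1.1)) (E (e j • 1))
            (by rw [← map_pow, hG', map_one]) (by rw [← map_pow, _root_.smul_pow, one_pow, he_r, one_smul, map_one])
            (by
              rw [E_charpoly, E_charpoly, hcp, Matrix.smul_one_eq_diagonal, Matrix.charpoly_diagonal]
              simp)
          refine hGns (v * e j) ((E).injective (LinearMap.ext fun y => x.injective ?_))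
          have hy := hx y
          rw [map_smul, LinearMap.smul_apply, map_smul, map_smul, map_one, LinearMap.smul_apply,
            Module.End.one_apply] at hy
          rw [map_smul, map_one, LinearMap.smul_apply, Module.End.one_apply, map_smul, ← smul_smul, ← hy,
            smul_smul, mul_inv_cancel₀ hv0, one_smul]
        refine ⟨Sum.inl ⟦(⟨⟨m, hm⟩, hvary⟩ : Vary r n)⟧, Subtype.ext ?_⟩
        refine (ConjClasses.mk_eq_mk_iff_isConj.2 (isConj_mk_GU hK hv1 hrK hG' ((hDr _).trans (one_smul _ _)) ?_)).symm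
        refine hcp.trans (Eq.symm ?_)
        have h0 := hprod m (⟨m, hm⟩ : Sym (ZMod r) n) rfl 0
        simp only [zero_add] at h0
        rw [hDval]
        exact h0
      · have hlt : i % r < r := Nat.mod_lt _ hr.pos
        set w := (η : K) ^ (i % r) with hw
        have hI := hirr w (hnonpow _ hpos hlt)
        obtain ⟨k, hk⟩ := eq_pow_of_forall_factor (f := X ^ r - C w) _ (v⁻¹ • G.1.1).charpoly rfl
          (Matrix.charpoly_monic _) fun p hp hpm hd => by
          refine eq_of_monic_of_associated hpm (hmon _) (hp.associated_of_dvd hI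
            (factor_dvd (a := E (v⁻¹ • G.1.1)) hp (by rw [E_charpoly]; exact hd) ?_))
          rw [map_sub, map_pow, aeval_X, aeval_C, ← map_pow, hG', map_smul, map_one,
            Algebra.algebraMap_eq_smul_one, sub_self]
        have hkn : r * k = n := by
          have h := congrArg natDegree hk
          rwa [Matrix.charpoly_natDegree_eq_dim, Fintype.card_fin, natDegree_pow, natDegree_X_pow_sub_C,
            mul_comm, eq_comm] at h
        have hd : r ∣ n := Dvd.intro k hkn
        let j : J := ⟨i % r - 1, by simp [hd]; omega⟩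
        have hjv : (η : K) ^ (j.1 + 1) = w := by rw [hw]; congr 1; show i % r - 1 + 1 = i % r; omega
        obtain ⟨k', hk'⟩ := eq_pow_of_forall_factor (f := X ^ r - C w) _ (B j).1.1.charpoly rfl
          (Matrix.charpoly_monic _) fun p hp hpm hd => by
          refine eq_of_monic_of_associated hpm (hmon _) (hp.associated_of_dvd hI
            (factor_dvd (a := E (B j).1.1) hp (by rw [E_charpoly]; exact hd) ?_))
          rw [map_sub, map_pow, aeval_X, aeval_C, ← map_pow, hB, hjv, map_smul, map_one,
            Algebra.algebraMap_eq_smul_one, sub_self]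
        have hkk : k' = k := by
          have h := congrArg natDegree hk'
          rw [Matrix.charpoly_natDegree_eq_dim, Fintype.card_fin, natDegree_pow, natDegree_X_pow_sub_C] at h
          exact Nat.eq_of_mul_eq_mul_right hr.pos (by rw [← h, mul_comm, hkn])
        have hm0 : ((r * (q + 1) : ℕ) : K) ≠ 0 := by
          rw [Nat.cast_mul, Nat.cast_add, hqK, zero_add, Nat.cast_one, mul_one]; exact hrK
        have hpm' : ∀ A : Matrix (Fin n) (Fin n) K, A ^ r = w • 1 → A ^ (r * (q + 1)) = 1 := fun A hA => by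
          rw [pow_mul, hA, _root_.smul_pow, one_pow, hw, hη1, one_smul]
        exact ⟨Sum.inr j, Subtype.ext (ConjClasses.mk_eq_mk_iff_isConj.2 (isConj_mk_GU hK hv1 hm0
          (hpm' _ hG') (hpm' _ (hjv ▸ hB j)) (by rw [hk, hk', hkk]))).symm⟩
  rw [← Nat.card_congr (Equiv.ofBijective Φ hbij), Nat.card_sum, Nat.card_fin]

end Cfsg.Agent.KnownB.PGLOrderR
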